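import Mathlib
import Cfsg.Agent.Lib.Orth.Spin

/-!
# Isometries of finite order: orthogonal splitting and small spaces
-/

set_option autoImplicit false
set_option linter.unusedSectionVars false
set_option linter.unusedSimpArgs false
set_option linter.style.haveILetI false

namespace Cfsg.Agent.Lib.BCSpec.Iso

open Module QuadraticMap Cfsg.Agent.Lib.Witt.Quadratic Cfsg.Agent.Lib.Orth.Wall

variable {F V : Type*} [Field F] [AddCommGroup V] [Module F V] {Q : QuadraticForm F V}

/-- Non-degeneracy of the polar form on a submodule. -/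
def ND (Q : QuadraticForm F V) (X : Submodule F V) : Prop :=
  ∀ x ∈ X, (∀ y ∈ X, polar Q x y = 0) → x = 0

theorem ND_top (hQ : (polarBilin Q).Nondegenerate) : ND Q ⊤ := by
  intro x _ h
  exact hQ.1 x (fun y => h y trivial)

/-- The orbit sum. -/
noncomputable def PP (s : V ≃ₗ[F] V) (e : ℕ) : V →ₗ[F] V :=
  ∑ i ∈ Finset.range e, ((s ^ i : V ≃ₗ[F] V) : V →ₗ[F] V)

theorem PP_apply (s : V ≃ₗ[F] V) (e : ℕ) (v : V) : PP s e v = ∑ i ∈ Finset.range e, (s ^ i) v := by
  simp [PP, LinearMap.sum_apply]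

/-- The kernel of the orbit sum. -/
noncomputable def avK (s : V ≃ₗ[F] V) (e : ℕ) : Submodule F V := LinearMap.ker (PP s e)

theorem mem_avK {s : V ≃ₗ[F] V} {e : ℕ} {v : V} : v ∈ avK s e ↔ PP s e v = 0 := LinearMap.mem_ker

theorem pow_succ_apply (s : V ≃ₗ[F] V) (i : ℕ) (v : V) : s ((s ^ i) v) = (s ^ (i + 1)) v := by
  rw [pow_succ']
  rfl

theorem s_PP {s : V ≃ₗ[F] V} {e : ℕ} (hs : s ^ e = 1) (v : V) : s (PP s e v) = PP s e v := by
  rw [PP_apply, map_sum]
  simp only [pow_succ_apply]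
  have h1 := Finset.sum_range_succ (fun i => (s ^ i) v) e
  have h2 := Finset.sum_range_succ' (fun i => (s ^ i) v) e
  rw [h1] at h2
  simp only [hs, pow_zero] at h2
  exact (add_right_cancel h2).symm

theorem spow_PP {s : V ≃ₗ[F] V} {e : ℕ} (hs : s ^ e = 1) (i : ℕ) (v : V) : (s ^ i) (PP s e v) = PP s e v := by
  induction i with
  | zero => simp
  | succ i ih =>
    rw [← pow_succ_apply, ih, s_PP hs]

theorem PP_PP {s : V ≃ₗ[F] V} {e : ℕ} (hs : s ^ e = 1) (v : V) : PP s e (PP s e v) = (e : F) • PP s e v := by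
  conv_lhs => rw [PP_apply]
  simp only [spow_PP hs]
  rw [Finset.sum_const, Finset.card_range, Nat.cast_smul_eq_nsmul]

theorem pow_mem_of_stable {s : V ≃ₗ[F] V} {X : Submodule F V} (hX : ∀ x ∈ X, s x ∈ X) (i : ℕ) {x : V} (hx : x ∈ X) :
    (s ^ i) x ∈ X := by
  induction i with
  | zero => simpa using hx
  | succ i ih =>
    rw [← pow_succ_apply]
    exact hX _ ih

theorem PP_mem {s : V ≃ₗ[F] V} {X : Submodule F V} (hX : ∀ x ∈ X, s x ∈ X) (e : ℕ) {x : V} (hx : x ∈ X) :
    PP s e x ∈ X := by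
  rw [PP_apply]
  exact Submodule.sum_mem _ fun i _ => pow_mem_of_stable hX i hx

theorem spow_fix {s : V ≃ₗ[F] V} {x : V} (hx : s x = x) (i : ℕ) : (s ^ i) x = x := by
  induction i with
  | zero => simp
  | succ i ih =>
    rw [← pow_succ_apply, ih, hx]

theorem split_inf {s : V ≃ₗ[F] V} {e : ℕ} (he : (e : F) ≠ 0) : fixSp s ⊓ avK s e = ⊥ := by
  rw [eq_bot_iff]
  rintro x ⟨h1, h2⟩
  have h3 : PP s e x = 0 := mem_avK.mp h2
  rw [PP_apply] at h3
  simp only [spow_fix (mem_fixSp.mp h1)] at h3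
  rw [Finset.sum_const, Finset.card_range, ← Nat.cast_smul_eq_nsmul F] at h3
  exact (smul_eq_zero.mp h3).resolve_left he

theorem split_sup {s : V ≃ₗ[F] V} {e : ℕ} (he : (e : F) ≠ 0) (hs : s ^ e = 1) {X : Submodule F V}
    (hX : ∀ x ∈ X, s x ∈ X) {x : V} (hx : x ∈ X) :
    ∃ a ∈ X ⊓ fixSp s, ∃ c ∈ X ⊓ avK s e, a + c = x := by
  refine ⟨(e : F)⁻¹ • PP s e x, Submodule.mem_inf.mpr ⟨X.smul_mem _ (PP_mem hX e hx), ?_⟩, x - (e : F)⁻¹ • PP s e x,
    Submodule.mem_inf.mpr ⟨X.sub_mem hx (X.smul_mem _ (PP_mem hX e hx)), ?_⟩, by abel⟩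
  · rw [mem_fixSp, map_smul, s_PP hs]
  · rw [mem_avK, map_sub, map_smul, PP_PP hs, smul_smul, inv_mul_cancel₀ he, one_smul, sub_self]

theorem polar_fix_avK {s : V ≃ₗ[F] V} (hs : s ∈ isoGroup Q) {e : ℕ} (he : (e : F) ≠ 0) {a c : V}
    (ha : a ∈ fixSp s) (hc : c ∈ avK s e) : polar Q a c = 0 := by
  have h1 : ∀ i, polar Q a ((s ^ i) c) = polar Q a c := by
    intro i
    have h2 := polar_eq_of_preserves (Q := Q) (s ^ i) (fun v => (pow_mem hs i : s ^ i ∈ isoGroup Q) v) a c
    rwa [spow_fix (mem_fixSp.mp ha)] at h2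
  have h3 : polar Q a (PP s e c) = (e : F) * polar Q a c := by
    rw [PP_apply]
    have : polar Q a (∑ i ∈ Finset.range e, (s ^ i) c) = polarBilin Q a (∑ i ∈ Finset.range e, (s ^ i) c) := rfl
    rw [this, map_sum]
    have h4 : ∀ i ∈ Finset.range e, polarBilin Q a ((s ^ i) c) = polar Q a c := fun i _ => h1 i
    rw [Finset.sum_congr rfl h4, Finset.sum_const, Finset.card_range, nsmul_eq_mul]
  rw [mem_avK.mp hc, polar_zero_right] at h3
  exact (mul_eq_zero.mp h3.symm).resolve_left he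

theorem ND_left {X A C : Submodule F V} (hX : ND Q X) (hA : A ≤ X) (hsup : ∀ x ∈ X, ∃ a ∈ A, ∃ c ∈ C, a + c = x)
    (horth : ∀ a ∈ A, ∀ c ∈ C, polar Q a c = 0) : ND Q A := by
  intro x hx h
  refine hX x (hA hx) fun y hy => ?_
  obtain ⟨a, ha, c, hc, rfl⟩ := hsup y hy
  rw [polar_add_right, h a ha, horth x hx c hc, add_zero]

theorem ND_right {X A C : Submodule F V} (hX : ND Q X) (hC : C ≤ X) (hsup : ∀ x ∈ X, ∃ a ∈ A, ∃ c ∈ C, a + c = x)
    (horth : ∀ a ∈ A, ∀ c ∈ C, polar Q a c = 0) : ND Q C := by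
  intro x hx h
  refine hX x (hC hx) fun y hy => ?_
  obtain ⟨a, ha, c, hc, rfl⟩ := hsup y hy
  rw [polar_add_right, h c hc, polar_comm, horth a ha x hx, zero_add]

section finite

variable [Finite F] [FiniteDimensional F V]

/-- Fixed points modulo a prime. -/
theorem fix_modEq (ℓ a : ℕ) [hℓ : Fact ℓ.Prime] {s : V ≃ₗ[F] V} (hs : s ^ (ℓ ^ a) = 1) {U : Submodule F V}
    (hU : ∀ x ∈ U, s x ∈ U) : Nat.card U ≡ Nat.card ↥(U ⊓ fixSp s) [MOD ℓ] := by
  classical
  haveI : Finite V := Module.finite_of_finite F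
  haveI : Fintype U := Fintype.ofFinite U
  let f : Function.End U := fun x => ⟨s x, hU x x.2⟩
  have hfk : ∀ (k : ℕ) (x : U), ((f ^ k) x : V) = (s ^ k) (x : V) := by
    intro k
    induction k with
    | zero => intro x; simp; rfl
    | succ k ih =>
      intro x
      rw [pow_succ', pow_succ']
      show s (((f ^ k) x : U) : V) = _
      rw [ih]
      rfl
  have hf : f ^ ℓ ^ a = 1 := by
    funext x
    apply Subtype.ext
    rw [hfk, hs]
    rfl
  have h := Equiv.Perm.card_fixedPoints_modEq hf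
  rw [Nat.card_eq_fintype_card]
  refine h.trans ?_
  have e : Nat.card ↥(Function.fixedPoints f) = Nat.card ↥(U ⊓ fixSp s) := by
    apply Nat.card_congr
    refine ⟨fun x => ⟨x.1.1, x.1.2, mem_fixSp.mpr (congrArg Subtype.val x.2)⟩,
      fun x => ⟨⟨x.1, x.2.1⟩, Subtype.ext (mem_fixSp.mp x.2.2)⟩, fun x => rfl, fun x => rfl⟩
  rw [Fintype.card_eq_nat_card, e]

/-- A `p`-element fixes a non-zero vector of a stable subspace. -/
theorem exists_fix_of_pow (p a : ℕ) [hp : Fact p.Prime] [CharP F p] {u : V ≃ₗ[F] V} (hu : u ^ (p ^ a) = 1)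
    {W : Submodule F V} (hW : ∀ x ∈ W, u x ∈ W) (hne : W ≠ ⊥) : ∃ w ∈ W, w ≠ 0 ∧ u w = w := by
  classical
  by_contra hcon
  push Not at hcon
  have h1 : W ⊓ fixSp u = ⊥ := by
    rw [eq_bot_iff]
    rintro x ⟨hx1, hx2⟩
    by_contra hx0
    exact hcon x hx1 hx0 (mem_fixSp.mp hx2)
  have h2 := fix_modEq p a hu hW
  rw [h1] at h2
  haveI : Fintype F := Fintype.ofFinite F
  obtain ⟨f, hfp, hcard⟩ := FiniteField.card F p
  have hc : Nat.card W = (Fintype.card F) ^ finrank F W := by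
    rw [Module.natCard_eq_pow_finrank (K := F), Nat.card_eq_fintype_card]
  have hd : 0 < finrank F W := by
    rw [Module.finrank_pos_iff]
    exact Submodule.nontrivial_iff_ne_bot.mpr hne
  have hdvd : p ∣ Nat.card W := by
    rw [hc, hcard]
    exact dvd_pow (dvd_pow_self p (fun h => by simp [h] at hcard; exact Fintype.one_lt_card.ne' hcard)) hd.ne'
  have h3 : Nat.card ↥(⊥ : Submodule F V) = 1 := by simp
  rw [h3] at h2
  have h4 := (Nat.modEq_zero_iff_dvd.mpr hdvd).symm.trans h2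
  have h5 := (Nat.modEq_zero_iff_dvd.mp h4.symm)
  exact hp.out.one_lt.ne' (Nat.dvd_one.mp h5)

/-- A `p`-element acts trivially on a non-degenerate subspace of dimension at most two. -/
theorem small_trivial (p a : ℕ) [hp : Fact p.Prime] [CharP F p] (h2 : (2 : F) ≠ 0) {u : V ≃ₗ[F] V}
    (hiso : u ∈ isoGroup Q) (hu : u ^ (p ^ a) = 1) {X : Submodule F V} (hX : ∀ x ∈ X, u x ∈ X) (hND : ND Q X)
    (hd : finrank F X ≤ 2) : ∀ x ∈ X, u x = x := by
  classical
  by_cases hbot : X = ⊥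
  · intro x hx
    rw [hbot, Submodule.mem_bot] at hx
    rw [hx, map_zero]
  obtain ⟨e, heX, he0, hue⟩ := exists_fix_of_pow p a hu hX hbot
  by_contra hcon
  push Not at hcon
  obtain ⟨x₀, hx₀, hux⟩ := hcon
  have hli : LinearIndependent F ![e, x₀] := by
    rw [LinearIndependent.pair_iff]
    intro s t hst
    have ht : t = 0 := by
      by_contra ht
      apply hux
      have : x₀ = (-(t⁻¹ * s)) • e := by
        have h3 : t • x₀ = (-s) • e := by
          rw [neg_smul]
          exact eq_neg_of_add_eq_zero_right hst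
        calc x₀ = t⁻¹ • (t • x₀) := by rw [smul_smul, inv_mul_cancel₀ ht, one_smul]
          _ = _ := by rw [h3, smul_smul, mul_neg]
      rw [this, map_smul, hue]
    subst ht
    rw [zero_smul, add_zero] at hst
    exact ⟨(smul_eq_zero.mp hst).resolve_right he0, rfl⟩
  have hspan : Submodule.span F {e, x₀} = X := by
    apply Submodule.eq_of_le_of_finrank_le
    · rw [Submodule.span_le]
      rintro y (rfl | rfl)
      · exact heX
      · exact hx₀
    · have := finrank_span_eq_card hli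
      have h3 : Set.range ![e, x₀] = {e, x₀} := by
        simp [Matrix.range_cons, Set.pair_comm]
      rw [h3] at this
      rw [this]
      simpa using hd
  have hux0 : u x₀ ∈ Submodule.span F {e, x₀} := by
    rw [hspan]
    exact hX _ hx₀
  obtain ⟨α, γ, hαγ⟩ := Submodule.mem_span_pair.mp hux0
  -- the coefficient `γ` is one
  have hpow : ∀ k : ℕ, ∃ c : F, (u ^ k) x₀ = c • e + γ ^ k • x₀ := by
    intro k
    induction k with
    | zero => exact ⟨0, by simp⟩
    | succ k ih =>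
      obtain ⟨c, hc⟩ := ih
      refine ⟨c + γ ^ k * α, ?_⟩
      rw [← pow_succ_apply, hc, map_add, map_smul, map_smul, hue, ← hαγ, smul_add, smul_smul, smul_smul,
        add_smul, add_assoc, pow_succ]
  have hγ : γ ^ (p ^ a) = 1 := by
    obtain ⟨c, hc⟩ := hpow (p ^ a)
    rw [hu] at hc
    have h3 : c • e + (γ ^ p ^ a - 1) • x₀ = 0 := by
      rw [sub_smul, one_smul]
      have h4 : (1 : V ≃ₗ[F] V) x₀ = x₀ := rfl
      rw [h4] at hc
      calc _ = (c • e + γ ^ p ^ a • x₀) - x₀ := by abel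
        _ = 0 := by rw [← hc, sub_self]
    have h4 := (LinearIndependent.pair_iff.mp hli) _ _ h3
    exact sub_eq_zero.mp h4.2
  have hγ1 : γ = 1 := by
    haveI : ExpChar F p := ExpChar.prime hp.out
    have h3 : (γ - 1) ^ p ^ a = 0 := by
      rw [sub_pow_expChar_pow, one_pow, hγ, sub_self]
    exact sub_eq_zero.mp ((pow_eq_zero_iff (pow_pos hp.out.pos a).ne').mp h3)
  subst hγ1
  rw [one_smul] at hαγ
  have hα : α ≠ 0 := by
    intro hα
    apply hux
    rw [← hαγ, hα, zero_smul, zero_add]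
  -- isometry
  have h3 : polar Q (u x₀) (u e) = polar Q x₀ e := polar_eq_of_preserves (Q := Q) u hiso x₀ e
  rw [hue, ← hαγ, polar_add_left, polar_smul_left, smul_eq_mul] at h3
  have h4 : polar Q e e = 0 := by
    have : α * polar Q e e = 0 := by linear_combination h3
    exact (mul_eq_zero.mp this).resolve_left hα
  have h5 : Q e = 0 := by
    rw [polar_self] at h4
    have : (2 : F) * Q e = 0 := by simpa using h4
    exact (mul_eq_zero.mp this).resolve_left h2
  have h6 : Q (u x₀) = Q x₀ := hiso x₀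
  rw [← hαγ, QuadraticMap.map_add Q, QuadraticMap.map_smul, h5, smul_zero, zero_add, polar_smul_left,
    smul_eq_mul] at h6
  have h7 : polar Q e x₀ = 0 := by
    have : α * polar Q e x₀ = 0 := by linear_combination h6
    exact (mul_eq_zero.mp this).resolve_left hα
  apply he0
  refine hND e heX fun y hy => ?_
  rw [← hspan] at hy
  obtain ⟨c, d, rfl⟩ := Submodule.mem_span_pair.mp hy
  rw [polar_add_right, polar_smul_right, polar_smul_right, h4, h7]
  simp

end finite

end Cfsg.Agent.Lib.BCSpec.Iso
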