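import Mathlib
import Cfsg.Agent.Lib.BCSpec.Iso
import Cfsg.Agent.Lib.BCSpec.Count
import Cfsg.Agent.Lib.Orth.Omega
import Cfsg.Agent.Lib.Zsig.Basic

/-!
# Elements of `Ω_{2n+1}(q)` of order divisible by `p (q^{n-1} + 1)` do not exist
-/

set_option autoImplicit false
set_option linter.unusedSectionVars false
set_option linter.unusedSimpArgs false
set_option linter.style.haveILetI false

namespace Cfsg.Agent.Lib.BCSpec.Main

open Module QuadraticMap Cfsg.Agent.Lib.Witt.Quadratic Cfsg.Agent.Lib.Orth.Wall Cfsg.Agent.Lib.BCSpec.Iso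
open Cfsg.Agent.Lib.BCSpec.Count

variable {F V : Type*} [Field F] [Fintype F] [AddCommGroup V] [Module F V] [FiniteDimensional F V]
  {Q : QuadraticForm F V}

/-- The hypotheses on the element `h` of prime order. -/
structure HH (Q : QuadraticForm F V) (h : V ≃ₗ[F] V) (r m q : ℕ) : Prop where
  iso : h ∈ isoGroup Q
  pow : h ^ r = 1
  ne : h ≠ 1
  rF : (r : F) ≠ 0
  ord : ∀ d, q ^ d ≡ 1 [MOD r] → 2 * m ∣ d
  hm : 2 ≤ m
  hV : finrank F V = 2 * m + 3
  hc : Fintype.card F = q

section HH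

variable {h : V ≃ₗ[F] V} {r m q : ℕ} [hr : Fact r.Prime]

theorem HH.inf (H : HH Q h r m q) : fixSp h ⊓ avK h r = ⊥ := split_inf H.rF

theorem HH.sup (H : HH Q h r m q) (x : V) : ∃ a ∈ fixSp h, ∃ c ∈ avK h r, a + c = x := by
  obtain ⟨a, ha, c, hc, e⟩ := split_sup (X := ⊤) H.rF H.pow (fun _ _ => trivial) (x := x) trivial
  exact ⟨a, ha.2, c, hc.2, e⟩

theorem HH.orth (H : HH Q h r m q) {a c : V} (ha : a ∈ fixSp h) (hc : c ∈ avK h r) : polar Q a c = 0 :=
  polar_fix_avK H.iso H.rF ha hc

theorem HH.finrank_add (H : HH Q h r m q) : finrank F (fixSp h) + finrank F (avK h r) = 2 * m + 3 := by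
  rw [← H.hV]
  apply Submodule.finrank_add_eq_of_isCompl
  refine ⟨disjoint_iff.mpr H.inf, codisjoint_iff.mpr ?_⟩
  rw [eq_top_iff]
  intro x _
  obtain ⟨a, ha, c, hc, rfl⟩ := H.sup x
  exact Submodule.add_mem_sup ha hc

/-- Linear equivalences commuting with `h` preserve the two pieces. -/
theorem stable_fix {s : V ≃ₗ[F] V} (hs : s * h = h * s) {x : V} (hx : x ∈ fixSp h) : s x ∈ fixSp h := by
  rw [mem_fixSp] at hx ⊢
  have h1 : (h * s) x = (s * h) x := by rw [hs]
  rw [LinearEquiv.mul_apply, LinearEquiv.mul_apply, hx] at h1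
  exact h1

theorem stable_fix' {s : V ≃ₗ[F] V} {t : V ≃ₗ[F] V} (hs : s * t = t * s) {x : V} (hx : x ∈ fixSp t) : s x ∈ fixSp t :=
  stable_fix hs hx

theorem PP_comm {s t : V ≃ₗ[F] V} (hs : s * t = t * s) (e : ℕ) (x : V) : PP t e (s x) = s (PP t e x) := by
  have hc : Commute s t := hs
  rw [PP_apply, PP_apply, map_sum]
  refine Finset.sum_congr rfl fun i _ => ?_
  have : (t ^ i) * s = s * (t ^ i) := ((hc.pow_right i).eq).symm
  have h1 := congrArg (fun f : V ≃ₗ[F] V => f x) this
  simpa [LinearEquiv.mul_apply] using h1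

theorem stable_av {s t : V ≃ₗ[F] V} (hs : s * t = t * s) (e : ℕ) {x : V} (hx : x ∈ avK t e) : s x ∈ avK t e := by
  rw [mem_avK] at hx ⊢
  rw [PP_comm hs, hx, map_zero]

theorem HH.dvd_finrank (H : HH Q h r m q) {U : Submodule F V} (hU : U ≤ avK h r) (hst : ∀ x ∈ U, h x ∈ U) :
    2 * m ∣ finrank F U := by
  have h1 := fix_modEq r 1 (s := h) (by rw [pow_one]; exact H.pow) hst
  have h2 : U ⊓ fixSp h = ⊥ := by
    rw [eq_bot_iff, ← H.inf]
    exact fun x hx => ⟨hx.2, hU hx.1⟩
  rw [h2] at h1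
  have h3 : Nat.card ↥(⊥ : Submodule F V) = 1 := by simp
  rw [h3, Module.natCard_eq_pow_finrank (K := F), Nat.card_eq_fintype_card, H.hc] at h1
  exact H.ord _ h1

theorem HH.av_ne_bot (H : HH Q h r m q) : avK h r ≠ ⊥ := by
  intro h0
  apply H.ne
  ext x
  obtain ⟨a, ha, c, hc, rfl⟩ := H.sup x
  rw [h0, Submodule.mem_bot] at hc
  subst hc
  simpa using mem_fixSp.mp ha

theorem HH.finrank_av (H : HH Q h r m q) : finrank F (avK h r) = 2 * m := by
  have h1 := H.dvd_finrank (U := avK h r) le_rfl (fun x hx => stable_av rfl r hx)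
  have h2 := H.finrank_add
  have hm := H.hm
  have h3 : 0 < finrank F (avK h r) := by
    rw [Module.finrank_pos_iff]
    exact Submodule.nontrivial_iff_ne_bot.mpr H.av_ne_bot
  obtain ⟨k, hk⟩ := h1
  have hk1 : k = 1 := by
    rcases k with _ | _ | k
    · rw [mul_zero] at hk
      omega
    · rfl
    · exfalso
      have h6 : 4 * m ≤ finrank F (avK h r) := by
        rw [hk]
        nlinarith
      omega
  subst hk1
  omega

theorem HH.finrank_fix (H : HH Q h r m q) : finrank F (fixSp h) = 3 := by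
  have h2 := H.finrank_add
  rw [H.finrank_av] at h2
  omega

theorem HH.irr (H : HH Q h r m q) {U : Submodule F V} (hU : U ≤ avK h r) (hst : ∀ x ∈ U, h x ∈ U) :
    U = ⊥ ∨ U = avK h r := by
  have h1 := H.dvd_finrank hU hst
  have h2 := Submodule.finrank_mono hU
  rw [H.finrank_av] at h2
  have hm := H.hm
  obtain ⟨k, hk⟩ := h1
  rcases k with _ | k
  · left
    rw [mul_zero] at hk
    exact Submodule.finrank_eq_zero.mp hk
  · right
    apply Submodule.eq_of_le_of_finrank_eq hU
    rw [H.finrank_av, hk]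
    have : 2 * m * (k + 1) = 2 * m * k + 2 * m := by ring
    have h5 : k = 0 := by
      by_contra hk0
      have : 1 ≤ k := Nat.one_le_iff_ne_zero.mpr hk0
      have h6 : 2 * m * 1 ≤ 2 * m * k := Nat.mul_le_mul_left _ this
      omega
    subst h5
    simp

/-- The fixed space of anything commuting with `h` meets `avK` trivially or contains it. -/
theorem HH.dich (H : HH Q h r m q) {s : V ≃ₗ[F] V} (hs : s * h = h * s) :
    avK h r ⊓ fixSp s = ⊥ ∨ avK h r ≤ fixSp s := by
  have hst : ∀ x ∈ avK h r ⊓ fixSp s, h x ∈ avK h r ⊓ fixSp s := by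
    intro x hx
    refine ⟨stable_av rfl r hx.1, ?_⟩
    exact stable_fix' hs.symm hx.2
  rcases H.irr inf_le_left hst with h1 | h1
  · exact Or.inl h1
  · right
    rw [← h1]
    exact inf_le_right

/-- Freeness outside the fixed space of `h`. -/
theorem HH.eq_one_of_fix (H : HH Q h r m q) {s : V ≃ₗ[F] V} (hs : s * h = h * s) (hW : fixSp h ≤ fixSp s) {x : V}
    (hx : x ∉ fixSp h) (hsx : s x = x) : s = 1 := by
  obtain ⟨a, ha, c, hc, rfl⟩ := H.sup x
  have hc0 : c ≠ 0 := by
    rintro rfl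
    apply hx
    simpa using ha
  have h1 : s c = c := by
    rw [map_add, mem_fixSp.mp (hW ha)] at hsx
    exact add_left_cancel hsx
  have h2 : avK h r ≤ fixSp s := by
    rcases H.dich hs with h3 | h3
    · exfalso
      apply hc0
      have : c ∈ avK h r ⊓ fixSp s := ⟨hc, mem_fixSp.mpr h1⟩
      rw [h3] at this
      simpa using this
    · exact h3
  ext y
  obtain ⟨a', ha', c', hc', rfl⟩ := H.sup y
  rw [map_add, mem_fixSp.mp (hW ha'), mem_fixSp.mp (h2 hc')]
  rfl

theorem HH.ND_fix (H : HH Q h r m q) (hQ : (polarBilin Q).Nondegenerate) : ND Q (fixSp h) :=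
  ND_left (X := ⊤) (C := avK h r) (ND_top hQ) le_top (fun x _ => H.sup x) (fun _ ha _ hc => H.orth ha hc)

end HH

/-- The permutation representation on the vectors of norm one. -/
noncomputable def permHom (Q : QuadraticForm F V) : isoGroup Q →* Equiv.Perm {v : V // Q v = 1} where
  toFun s :=
    { toFun := fun v => ⟨s.1 v.1, (s.2 v.1).trans v.2⟩
      invFun := fun v => ⟨(s⁻¹).1 v.1, ((s⁻¹).2 v.1).trans v.2⟩
      left_inv := fun v => Subtype.ext (by
        show s.1.symm (s.1 v.1) = v.1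
        simp)
      right_inv := fun v => Subtype.ext (by
        show s.1 (s.1.symm v.1) = v.1
        simp) }
  map_one' := by
    ext v
    rfl
  map_mul' a b := by
    ext v
    rfl

theorem permHom_apply (s : isoGroup Q) (v : {v : V // Q v = 1}) : (permHom Q s v : V) = s.1 v.1 := rfl

theorem permHom_pow_apply (s : isoGroup Q) (k : ℕ) (v : {v : V // Q v = 1}) :
    (((permHom Q s) ^ k) v : V) = ((s.1) ^ k) v.1 := by
  rw [← map_pow, permHom_apply]
  rfl

/-- The sign of the action on norm-one vectors. -/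
theorem sign_main {h : V ≃ₗ[F] V} {r m q : ℕ} [Fact r.Prime] [Fintype {v : V // Q v = 1}]
    [DecidableEq {v : V // Q v = 1}] (H : HH Q h r m q) (s : isoGroup Q)
    (hs : s.1 * h = h * s.1) (hW : fixSp h ≤ fixSp s.1) (hne : s ≠ 1) :
    ∃ c : ℕ, c * orderOf s + Nat.card {w : ↥(fixSp h) // Q (w : V) = 1} = Nat.card {v : V // Q v = 1} ∧
      Equiv.Perm.sign (permHom Q s) = (-1) ^ (c * orderOf s + c) := by
  classical
  have hne' : s.1 ≠ 1 := fun h1 => hne (Subtype.ext h1)
  have hfix : ∀ x : V, s.1 x = x → x ∈ fixSp h := by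
    intro x hx
    by_contra hn
    exact hne' (H.eq_one_of_fix hs hW hn hx)
  have hk : ∀ k : ℕ, (s.1 ^ k) * h = h * (s.1 ^ k) := by
    intro k
    have hc : Commute s.1 h := hs
    exact (hc.pow_left k).eq
  have hWk : ∀ k : ℕ, fixSp h ≤ fixSp (s.1 ^ k) := by
    intro k x hx
    rw [mem_fixSp]
    exact spow_fix (mem_fixSp.mp (hW hx)) k
  obtain ⟨c, hc1, hc2⟩ := sign_of_free (σ := permHom Q s) (ℓ := orderOf s)
    (by rw [← map_pow, pow_orderOf_eq_one, map_one])
    (by
      intro x hx k hk'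
      have h1 : x.1 ∉ fixSp h := by
        intro h2
        apply hx
        apply Subtype.ext
        rw [permHom_apply]
        exact mem_fixSp.mp (hW h2)
      have h2 : (s.1 ^ k) x.1 = x.1 := by
        rw [← permHom_pow_apply, hk']
      have h3 := H.eq_one_of_fix (hk k) (hWk k) h1 h2
      apply orderOf_dvd_of_pow_eq_one
      apply Subtype.ext
      simpa using h3)
  refine ⟨c, ?_, hc2⟩
  rw [← hc1]
  -- count the support
  have h3 : ∀ x : {v : V // Q v = 1}, x ∈ (permHom Q s).support ↔ x.1 ∉ fixSp h := by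
    intro x
    rw [Equiv.Perm.mem_support]
    constructor
    · intro h1 h2
      apply h1
      apply Subtype.ext
      rw [permHom_apply]
      exact mem_fixSp.mp (hW h2)
    · intro h1 h2
      apply h1
      apply hfix
      have := congrArg Subtype.val h2
      rwa [permHom_apply] at this
  have h4 : Nat.card {w : ↥(fixSp h) // Q (w : V) = 1} =
      (Finset.univ.filter fun x : {v : V // Q v = 1} => x.1 ∈ fixSp h).card := by
    rw [← Fintype.card_subtype, ← Nat.card_eq_fintype_card]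
    apply Nat.card_congr
    exact { toFun := fun w => ⟨⟨w.1.1, w.2⟩, w.1.2⟩
            invFun := fun x => ⟨⟨x.1.1, x.2⟩, x.1.2⟩
            left_inv := fun w => rfl
            right_inv := fun x => rfl }
  have h5 : (permHom Q s).support = Finset.univ.filter fun x : {v : V // Q v = 1} => x.1 ∉ fixSp h := by
    ext x
    rw [h3]
    simp
  rw [h4, h5, Nat.card_eq_fintype_card]
  rw [← Fintype.card_subtype, ← Fintype.card_subtype]
  rw [Fintype.card_subtype_compl]
  have h6 : Fintype.card {x : {v : V // Q v = 1} // x.1 ∈ fixSp h} ≤ Fintype.card {v : V // Q v = 1} :=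
    Fintype.card_subtype_le _
  omega

/-- The numerical conclusion. -/
theorem numeric {q y r c c' b N : ℕ} (hr : r.Prime) (hr2 : r ≠ 2) (hq : Odd q) (hrq : ¬ r ∣ q) (hry : r ∣ y + 1)
    (hy : Odd y) (hN : N = q * q + q ∨ N = q * q - q) (hc' : c' * r + N = (q * y) * (q * y) + q * y)
    (hc : c * 2 ^ b + N = (q * y) * (q * y) + q * y) (hℓ : ¬ (2 * 2 ^ b ∣ y + 1)) : Odd c := by
  have hq0 : 1 ≤ q := hq.pos
  obtain ⟨w, rfl⟩ : ∃ w, y = 2 * w + 1 := hy
  set z := 2 * w with hz
  have hN' : N = q * q - q := by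
    rcases hN with hN | hN
    · exfalso
      subst hN
      have h1 : c' * r = q * (z * (q * (z + 1 + 1) + 1)) := by
        nlinarith
      have h2 : r ∣ q * (z * (q * (z + 1 + 1) + 1)) := ⟨c', by rw [← h1]; ring⟩
      rcases (hr.dvd_mul).mp h2 with h3 | h3
      · exact hrq h3
      · rcases (hr.dvd_mul).mp h3 with h4 | h4
        · have h5 : r ∣ 2 := by
            have : z + 1 + 1 = z + 2 := by ring
            rw [this] at hry
            exact (Nat.dvd_add_right h4).mp hry
          have := (Nat.prime_dvd_prime_iff_eq hr Nat.prime_two).mp h5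
          exact hr2 this
        · have h5 : r ∣ q * (z + 1 + 1) := hry.mul_left q
          have h6 : r ∣ 1 := (Nat.dvd_add_right h5).mp h4
          exact hr.one_lt.ne' (Nat.dvd_one.mp h6)
    · exact hN
  have hqq : q * q - q + q = q * q := Nat.sub_add_cancel (Nat.le_mul_self q)
  have h1 : c * 2 ^ b = q * ((z + 1 + 1) * (q * z + 1)) := by
    subst hN'
    nlinarith
  by_contra hodd
  rw [Nat.not_odd_iff_even] at hodd
  obtain ⟨d, rfl⟩ := hodd
  apply hℓ
  have h2 : 2 * 2 ^ b ∣ (z + 1 + 1) * (q * (q * z + 1)) := ⟨d, by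
    have : (z + 1 + 1) * (q * (q * z + 1)) = (d + d) * 2 ^ b := by rw [h1]; ring
    rw [this]
    ring⟩
  have hodd2 : Odd (q * (q * z + 1)) := by
    apply hq.mul
    apply Even.add_one
    rw [hz]
    exact (even_two_mul w).mul_left q
  have hcop : Nat.Coprime (2 * 2 ^ b) (q * (q * z + 1)) := by
    have : 2 * 2 ^ b = 2 ^ (b + 1) := by ring
    rw [this]
    apply Nat.Coprime.pow_left
    exact (Nat.coprime_two_left).mpr hodd2
  exact hcop.dvd_of_dvd_mul_right h2

/-- No element of `Ω` has order divisible by `p (q^m + 1)`. -/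
theorem no_order (p : ℕ) [hp : Fact p.Prime] [CharP F p] (h2 : (2 : F) ≠ 0) {q m : ℕ} (hq : Fintype.card F = q)
    (hm : 2 ≤ m) (hV : finrank F V = 2 * m + 3) (hQ : (polarBilin Q).Nondegenerate)
    (hNV : Nat.card {v : V // Q v = 1} = q ^ (m + 1) * q ^ (m + 1) + q ^ (m + 1))
    (g : isoGroup Q) (hg : g ∈ commutator (isoGroup Q)) (hN : p * (q ^ m + 1) ∣ orderOf g) : False := by
  classical
  haveI : Finite V := Module.finite_of_finite F
  haveI : Fintype {v : V // Q v = 1} := Fintype.ofFinite _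
  have hq2 : 2 ≤ q := hq ▸ Fintype.one_lt_card
  have hqodd : Odd q := by
    rw [← hq]
    by_contra h
    rw [Nat.not_odd_iff_even] at h
    have h3 : ringChar F = 2 := FiniteField.even_card_iff_char_two.mpr (Nat.even_iff.mp h)
    have h4 := ringChar.Nat.cast_ringChar (R := F)
    rw [h3] at h4
    exact h2 (by exact_mod_cast h4)
  haveI : Finite (isoGroup Q) := by
    haveI : Finite (V ≃ₗ[F] V) := Finite.of_injective (fun s : V ≃ₗ[F] V => (s : V → V)) DFunLike.coe_injective
    infer_instance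
  set o := orderOf g with ho
  have ho0 : o ≠ 0 := (orderOf_pos g).ne'
  have hoddy : Odd (q ^ m) := hqodd.pow
  -- the prime `r`
  obtain ⟨r, hrp, hr1, hr2⟩ := Cfsg.Agent.Lib.Zsig.Basic.zsigmondy q (2 * m) (by omega) (by omega)
    (by
      rintro ⟨rfl, -⟩
      exact absurd hqodd (by decide))
    (by
      rintro ⟨h3, -⟩
      omega)
  haveI hrF : Fact r.Prime := ⟨hrp⟩
  have hq1 : 1 ≤ q ^ m := Nat.one_le_pow _ _ (by omega)
  have hfac : q ^ (2 * m) - 1 = (q ^ m - 1) * (q ^ m + 1) := by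
    obtain ⟨z, hz⟩ : ∃ z, q ^ m = z + 1 := ⟨q ^ m - 1, by omega⟩
    rw [mul_comm 2 m, pow_mul, pow_two, hz]
    simp only [Nat.add_sub_cancel]
    have : (z + 1) * (z + 1) = z * (z + 1 + 1) + 1 := by ring
    omega
  have hry : r ∣ q ^ m + 1 := by
    rw [hfac] at hr1
    exact (hrp.dvd_mul.mp hr1).resolve_left (hr2 m (by omega) (by omega))
  have hr_ne2 : r ≠ 2 := by
    rintro rfl
    apply hr2 1 (by omega) (by omega)
    rw [pow_one]
    obtain ⟨w, hw⟩ := hqodd
    exact ⟨w, by omega⟩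
  have hrq : ¬ r ∣ q := by
    intro h3
    have h4 : r ∣ q ^ (2 * m) := dvd_pow h3 (by omega)
    have h5 : 1 ≤ q ^ (2 * m) := Nat.one_le_pow _ _ (by omega)
    have h6 : r ∣ 1 := by
      have h7 : q ^ (2 * m) = (q ^ (2 * m) - 1) + 1 := by omega
      rw [h7] at h4
      exact (Nat.dvd_add_right hr1).mp h4
    exact hrp.one_lt.ne' (Nat.dvd_one.mp h6)
  have hpq : p ∣ q := by
    obtain ⟨f, hf, hc⟩ := FiniteField.card F p
    rw [← hq, hc]
    exact dvd_pow_self p (fun h => by
      rw [h] at hc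
      simp only [pow_zero] at hc
      exact Fintype.one_lt_card.ne' hc)
  have hrF0 : (r : F) ≠ 0 := by
    intro h3
    have h4 := (CharP.cast_eq_zero_iff F p r).mp h3
    have h5 := (Nat.prime_dvd_prime_iff_eq hp.out hrp).mp h4
    subst h5
    exact hrq hpq
  have hord : ∀ d, q ^ d ≡ 1 [MOD r] → 2 * m ∣ d := by
    intro d hd
    have h3 : q ^ (2 * m) ≡ 1 [MOD r] := by
      have h5 : 1 ≤ q ^ (2 * m) := Nat.one_le_pow _ _ (by omega)
      exact ((Nat.modEq_iff_dvd' h5).mpr hr1).symm
    have h4 : q ^ (d % (2 * m)) ≡ 1 [MOD r] := by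
      have h5 : q ^ d = (q ^ (2 * m)) ^ (d / (2 * m)) * q ^ (d % (2 * m)) := by
        rw [← pow_mul, ← pow_add, Nat.div_add_mod]
      rw [h5] at hd
      have h6 := (h3.pow (d / (2 * m))).mul_right (q ^ (d % (2 * m)))
      rw [one_pow, one_mul] at h6
      exact h6.symm.trans hd
    by_contra hnd
    have hpos : 0 < d % (2 * m) := Nat.pos_of_ne_zero (fun h5 => hnd (Nat.dvd_of_mod_eq_zero h5))
    have hlt : d % (2 * m) < 2 * m := Nat.mod_lt _ (by omega)
    apply hr2 _ hpos hlt
    have h5 : 1 ≤ q ^ (d % (2 * m)) := Nat.one_le_pow _ _ (by omega)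
    exact (Nat.modEq_iff_dvd' h5).mp h4.symm
  -- the element `h`
  have hro : r ∣ o := (hry.trans (Dvd.intro_left p rfl)).trans hN
  set hG : isoGroup Q := g ^ (o / r) with hhG
  have hGo : orderOf hG = r := orderOf_pow_orderOf_div ho0 hro
  set h : V ≃ₗ[F] V := hG.1 with hh
  have hcomm : ∀ a b : ℕ, (g ^ a).1 * (g ^ b).1 = (g ^ b).1 * (g ^ a).1 := by
    intro a b
    have : g ^ a * g ^ b = g ^ b * g ^ a := by rw [← pow_add, ← pow_add, add_comm]
    exact congrArg Subtype.val this
  have H : HH Q h r m q :=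
    { iso := hG.2
      pow := by
        have : hG ^ r = 1 := by rw [← hGo, pow_orderOf_eq_one]
        exact congrArg Subtype.val this
      ne := by
        intro h3
        have : hG = 1 := Subtype.ext h3
        rw [this, orderOf_one] at hGo
        exact hrp.one_lt.ne hGo
      rF := hrF0
      ord := hord
      hm := hm
      hV := hV
      hc := hq }
  -- the `p`-part
  obtain ⟨a, c, hcnd, hoc⟩ := Nat.exists_eq_pow_mul_and_not_dvd ho0 p hp.out.one_lt.ne'
  have hpo : p ∣ o := (Dvd.intro _ rfl).trans hN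
  have ha1 : 1 ≤ a := by
    by_contra h3
    have : a = 0 := by omega
    subst this
    rw [pow_zero, one_mul] at hoc
    exact hcnd (hoc ▸ hpo)
  have hc0 : c ≠ 0 := by
    rintro rfl
    exact ho0 (by rw [hoc, mul_zero])
  set uG : isoGroup Q := g ^ c with huG
  have huG1 : uG ^ (p ^ a) = 1 := by
    rw [huG, ← pow_mul, mul_comm, ← hoc, ho, pow_orderOf_eq_one]
  have huG2 : uG ≠ 1 := by
    apply pow_ne_one_of_lt_orderOf hc0
    rw [← ho, hoc]
    have : 2 ≤ p ^ a := by
      calc 2 ≤ p := hp.out.two_le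
        _ = p ^ 1 := (pow_one p).symm
        _ ≤ p ^ a := Nat.pow_le_pow_right hp.out.pos ha1
    nlinarith [Nat.pos_of_ne_zero hc0]
  set u : V ≃ₗ[F] V := uG.1 with hu
  have hu1 : u ^ (p ^ a) = 1 := congrArg Subtype.val huG1
  have huh : u * h = h * u := hcomm _ _
  have hu_av : avK h r ≤ fixSp u := by
    rcases H.dich huh with h3 | h3
    · exfalso
      obtain ⟨w, hw, hw0, huw⟩ := exists_fix_of_pow p a hu1 (W := avK h r) (fun x hx => stable_av huh r hx) H.av_ne_bot
      apply hw0
      have : w ∈ avK h r ⊓ fixSp u := ⟨hw, mem_fixSp.mpr huw⟩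
      rw [h3] at this
      simpa using this
    · exact h3
  have hu_ne : ∃ v ∈ fixSp h, u v ≠ v := by
    by_contra h3
    push Not at h3
    apply huG2
    apply Subtype.ext
    ext x
    obtain ⟨a', ha', c', hc', rfl⟩ := H.sup x
    show u (a' + c') = a' + c'
    rw [map_add, h3 a' ha', mem_fixSp.mp (hu_av hc')]
  -- the `2`-part
  obtain ⟨b, o', ho'nd, hoo⟩ := Nat.exists_eq_pow_mul_and_not_dvd ho0 2 (by norm_num)
  have h2o : 2 ∣ o := ((hoddy.add_one).two_dvd.trans (Dvd.intro_left p rfl)).trans hN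
  have hb1 : 1 ≤ b := by
    by_contra h3
    have : b = 0 := by omega
    subst this
    rw [pow_zero, one_mul] at hoo
    exact ho'nd (hoo ▸ h2o)
  have ho'0 : o' ≠ 0 := by
    rintro rfl
    exact ho0 (by rw [hoo, mul_zero])
  set tG : isoGroup Q := g ^ o' with htG
  have htGo : orderOf tG = 2 ^ b := by
    rw [htG, orderOf_pow' _ ho'0, ← ho, hoo, Nat.gcd_eq_right (Dvd.intro_left _ rfl)]
    exact Nat.mul_div_cancel _ (Nat.pos_of_ne_zero ho'0)
  have htG1 : tG ≠ 1 := by
    intro h3
    rw [h3, orderOf_one] at htGo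
    have : 2 ≤ 2 ^ b := by
      calc 2 = 2 ^ 1 := by norm_num
        _ ≤ 2 ^ b := Nat.pow_le_pow_right (by norm_num) hb1
    omega
  have htc : tG ∈ commutator (isoGroup Q) := pow_mem hg _
  set t : V ≃ₗ[F] V := tG.1 with ht
  have ht1 : t ^ (2 ^ b) = 1 := by
    have : tG ^ (2 ^ b) = 1 := by rw [← htGo, pow_orderOf_eq_one]
    exact congrArg Subtype.val this
  have hth : t * h = h * t := hcomm _ _
  have htu : u * t = t * u := hcomm _ _
  have he : ((2 ^ b : ℕ) : F) ≠ 0 := by
    push_cast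
    exact pow_ne_zero _ h2
  -- parity of the fixed space
  have hgen : ∀ s ∈ isoGroup Q, s ∈ Cfsg.Agent.Lib.Orth.Gen.W Q := fun s hs =>
    Cfsg.Agent.Lib.Orth.Gen.mem_W hQ (Or.inr (by omega)) hs
  have hrk : Even (finrank F (movSp t)) := by
    have h3 := (Cfsg.Agent.Lib.Orth.Omega.rp_sn_of_mem_commutator hQ hgen htc).1
    exact (ZMod.natCast_eq_zero_iff_even).mp h3
  have hfixodd : Odd (finrank F (fixSp t)) := by
    have h3 : finrank F (movSp t) + finrank F (fixSp t) = finrank F V :=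
      LinearMap.finrank_range_add_finrank_ker _
    rw [hV] at h3
    obtain ⟨w, hw⟩ := hrk
    exact ⟨m + 1 - w, by omega⟩
  -- decomposition of the fixed space of `t`
  set A := fixSp h ⊓ fixSp t with hA
  set B := avK h r ⊓ fixSp t with hB
  have hABinf : A ⊓ B = ⊥ := by
    rw [eq_bot_iff, ← H.inf]
    exact fun x hx => ⟨hx.1.1, hx.2.1⟩
  have hABsup : A ⊔ B = fixSp t := by
    apply le_antisymm
    · exact sup_le inf_le_right inf_le_right
    · intro x hx
      obtain ⟨a', ha', c', hc', rfl⟩ := H.sup x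
      have h3 : t a' + t c' = a' + c' := by
        rw [← map_add]
        exact mem_fixSp.mp hx
      have h4 : t a' - a' = c' - t c' := sub_eq_sub_iff_add_eq_add.mpr (h3.trans (add_comm _ _))
      have h5 : t a' - a' ∈ fixSp h ⊓ avK h r :=
        ⟨sub_mem (stable_fix hth ha') ha', h4 ▸ sub_mem hc' (stable_av hth r hc')⟩
      rw [H.inf, Submodule.mem_bot] at h5
      have h6 : t a' = a' := sub_eq_zero.mp h5
      have h7 : t c' = c' := by
        rw [h6] at h3
        exact add_left_cancel h3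
      exact Submodule.add_mem_sup ⟨ha', mem_fixSp.mpr h6⟩ ⟨hc', mem_fixSp.mpr h7⟩
  have hAB : finrank F A + finrank F B = finrank F (fixSp t) := by
    have := Submodule.finrank_sup_add_finrank_inf_eq A B
    rw [hABinf, hABsup, finrank_bot, add_zero] at this
    exact this.symm
  have hBval : finrank F B = 0 ∨ finrank F B = 2 * m := by
    rcases H.dich hth with h3 | h3
    · left
      rw [hB, h3, finrank_bot]
    · right
      rw [hB, inf_eq_left.mpr h3, H.finrank_av]
  have hAodd : Odd (finrank F A) := by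
    obtain ⟨w, hw⟩ := hfixodd
    rcases hBval with h3 | h3
    · exact ⟨w, by omega⟩
    · exact ⟨w - m, by omega⟩
  set C := fixSp h ⊓ avK t (2 ^ b) with hC
  have hACinf : A ⊓ C = ⊥ := by
    rw [eq_bot_iff, ← split_inf (s := t) he]
    exact fun x hx => ⟨hx.1.2, hx.2.2⟩
  have hACsup' : ∀ x ∈ fixSp h, ∃ a ∈ A, ∃ c ∈ C, a + c = x := fun x hx =>
    split_sup he ht1 (X := fixSp h) (fun y hy => stable_fix hth hy) hx
  have hACsup : A ⊔ C = fixSp h := by
    apply le_antisymm
    · exact sup_le inf_le_left inf_le_left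
    · intro x hx
      obtain ⟨a', ha', c', hc', rfl⟩ := hACsup' x hx
      exact Submodule.add_mem_sup ha' hc'
  have hAC : finrank F A + finrank F C = 3 := by
    have := Submodule.finrank_sup_add_finrank_inf_eq A C
    rw [hACinf, hACsup, finrank_bot, add_zero, H.finrank_fix] at this
    exact this.symm
  have hWt : fixSp h ≤ fixSp t := by
    by_cases hA3 : finrank F A = 3
    · have : A = fixSp h := Submodule.eq_of_le_of_finrank_eq inf_le_left (by rw [hA3, H.finrank_fix])
      rw [← this]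
      exact inf_le_right
    · exfalso
      have hA1 : finrank F A = 1 := by
        obtain ⟨w, hw⟩ := hAodd
        omega
      have horth : ∀ a ∈ A, ∀ c ∈ C, polar Q a c = 0 := fun a' ha' c' hc' =>
        polar_fix_avK tG.2 he ha'.2 hc'.2
      have hNDA : ND Q A := ND_left (H.ND_fix hQ) inf_le_left hACsup' horth
      have hNDC : ND Q C := ND_right (H.ND_fix hQ) inf_le_left hACsup' horth
      have hstA : ∀ x ∈ A, u x ∈ A := fun x hx => ⟨stable_fix huh hx.1, stable_fix' htu hx.2⟩
      have hstC : ∀ x ∈ C, u x ∈ C := fun x hx => ⟨stable_fix huh hx.1, stable_av htu _ hx.2⟩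
      have h3 := small_trivial p a h2 uG.2 hu1 hstA hNDA (by omega)
      have h4 := small_trivial p a h2 uG.2 hu1 hstC hNDC (by omega)
      obtain ⟨v, hv, huv⟩ := hu_ne
      obtain ⟨a', ha', c', hc', rfl⟩ := hACsup' v hv
      apply huv
      rw [map_add, h3 a' ha', h4 c' hc']
  -- the counts
  have hGne : hG ≠ 1 := by
    intro h3
    rw [h3, orderOf_one] at hGo
    exact hrp.one_lt.ne hGo
  obtain ⟨c₁, hc₁, hsign⟩ := sign_main H tG hth hWt htG1
  obtain ⟨c₂, hc₂, -⟩ := sign_main H hG rfl le_rfl hGne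
  rw [htGo] at hc₁ hsign
  rw [hGo] at hc₂
  have nd : (polarBilin (Q.comp (fixSp h).subtype)).Nondegenerate := by
    constructor
    · intro x hx
      apply Subtype.ext
      exact H.ND_fix hQ x.1 x.2 (fun y hy => hx ⟨y, hy⟩)
    · intro x hx
      apply Subtype.ext
      refine H.ND_fix hQ x.1 x.2 (fun y hy => ?_)
      rw [polar_comm]
      exact hx ⟨y, hy⟩
  have hN1 : Nat.card {w : ↥(fixSp h) // Q (w : V) = 1} = q * q + q ∨
      Nat.card {w : ↥(fixSp h) // Q (w : V) = 1} = q * q - q :=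
    card_three hq h2 (Q.comp (fixSp h).subtype) nd H.finrank_fix
  have hpow : q ^ (m + 1) = q * q ^ m := pow_succ' q m
  rw [hNV, hpow] at hc₁ hc₂
  have hℓ : ¬ (2 * 2 ^ b ∣ q ^ m + 1) := by
    intro h3
    have h4 : 2 * 2 ^ b ∣ 2 ^ b * o' := by
      rw [← hoo]
      exact h3.trans ((Dvd.intro_left p rfl).trans hN)
    rw [mul_comm 2] at h4
    exact ho'nd (Nat.dvd_of_mul_dvd_mul_left (by positivity) h4)
  have hcodd := numeric hrp hr_ne2 hqodd hrq hry hoddy hN1 hc₂ hc₁ hℓ
  have hs3 : Equiv.Perm.sign (permHom Q tG) = 1 :=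
    Abelianization.commutator_subset_ker (Equiv.Perm.sign.comp (permHom Q)) htc
  rw [hs3] at hsign
  have hodd3 : Odd (c₁ * 2 ^ b + c₁) := by
    apply Even.add_odd _ hcodd
    apply Even.mul_left
    exact (Nat.even_pow.mpr ⟨even_two, by omega⟩)
  rw [hodd3.neg_one_pow] at hsign
  exact absurd hsign (by decide)

end Cfsg.Agent.Lib.BCSpec.Main
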