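import Mathlib
import Cfsg.Agent.Lib.SpSpec.FormAlg

/-!
# An element of order `p (q^m + 1)` in `PSp_{2m+2}(q)`
-/

set_option autoImplicit false
set_option linter.unusedSectionVars false
set_option linter.style.haveILetI false

namespace Cfsg.Agent.Lib.BCSpec.PSp

open Polynomial Module FiniteField
open Cfsg.Agent.Lib.SpSpec.FormAlg

variable {F : Type*} [Field F] [Fintype F] (p : ℕ) [hp : Fact p.Prime] [CharP F p]

theorem exists_psp (h2 : (2 : F) ≠ 0) {n m : ℕ} (hn : n = m + 1) (hm : 1 ≤ m) :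
    ∃ g : Cfsg.PSp n F, orderOf g = p * (Fintype.card F ^ m + 1) := by
  have hp' : p.Prime := hp.out
  have hp2 : p ≠ 2 := char_ne_two p h2
  have hm0 : m ≠ 0 := by omega
  haveI : NeZero (2 * m) := ⟨by omega⟩
  obtain ⟨σ, τ, hform, hσ⟩ := exists_form_ext (F := F) p m hm0
  obtain ⟨y, hy0, hy⟩ := Cfsg.Agent.Lib.SLn.PrimeGraph.exists_ext_elem (F := F) p (2 * m)
    (dvd_pow_two_mul_sub_one_plus F m)
  have hk : Even 2 := even_two
  have hk0 : (2 : ℕ) ≠ 0 := by norm_num
  have hk1 : 1 ≤ 2 := by norm_num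
  have hfp := hform.prod (formAlg_trunc (F := F) hk hk0 h2)
  have hu : orderOf (cay (AdjoinRoot.root (X ^ 2 : F[X])) 2) = p ^ Nat.clog p 2 := orderOf_cay p h2 hk0
  have hclog : Nat.clog p 2 = 1 := by
    apply le_antisymm
    · exact Nat.clog_le_of_le_pow (by simpa using hp'.two_le)
    · apply Nat.succ_le_of_lt
      exact Nat.clog_pos hp'.one_lt (by norm_num)
  rw [hclog, pow_one] at hu
  set u : AdjoinRoot (X ^ 2 : F[X]) := cay (AdjoinRoot.root (X ^ 2 : F[X])) 2 with hu_def
  have huσ : u * negRoot F 2 u = 1 := cay_mul_sigma _ (root_pow_self 2) (negRoot_root 2)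
  have hφ : Cfsg.Agent.Lib.SLn.Spec.augm hk1 u = 1 :=
    augm_cay (root_pow_self 2) (Cfsg.Agent.Lib.SLn.Spec.augm hk1) (by simp [Cfsg.Agent.Lib.SLn.Spec.augm])
  have hF2 : (-1 : F) ≠ 1 := by
    intro h1
    apply h2
    linear_combination -h1
  have hdim2 : finrank F (Extension F p (2 * m) × AdjoinRoot (X ^ 2 : F[X])) = 2 * n := by
    rw [Module.finrank_prod, FiniteField.finrank_extension, Cfsg.Agent.Lib.SLn.Spec.finrank_trunc]
    omega
  have hcop : Nat.Coprime p (Fintype.card F ^ m + 1) := by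
    rw [hp'.coprime_iff_not_dvd]
    exact not_dvd_card_pow_add_one (F := F) p hm0
  apply exists_psp_order (by omega) hfp hdim2 ((y, u) : Extension F p (2 * m) × AdjoinRoot (X ^ 2 : F[X]))
  · apply Prod.ext
    · change y * σ y = 1
      rw [hσ, ← pow_succ', ← hy, pow_orderOf_eq_one]
    · exact huσ
  · left
    apply Prod.ext
    · change y ^ _ = 1
      have hyN : y ^ (Fintype.card F ^ m + 1) = 1 := by
        rw [← hy, pow_orderOf_eq_one]
      rw [mul_comm p, pow_mul, hyN, one_pow]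
    · change u ^ _ = 1
      rw [pow_mul, ← hu, pow_orderOf_eq_one, one_pow]
  · intro j hj
    have hmain : y ^ j = 1 ∧ u ^ j = 1 := by
      rcases hj with hj | hj
      · exact ⟨congrArg Prod.fst hj, congrArg Prod.snd hj⟩
      · exfalso
        have h4 : u ^ j = -1 := congrArg Prod.snd hj
        have := congrArg (Cfsg.Agent.Lib.SLn.Spec.augm hk1) h4
        rw [map_pow, hφ, map_neg, map_one, one_pow] at this
        exact hF2 this.symm
    apply hcop.mul_dvd_of_dvd_of_dvd
    · rw [← hu]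
      exact orderOf_dvd_of_pow_eq_one hmain.2
    · rw [← hy]
      exact orderOf_dvd_of_pow_eq_one hmain.1

end Cfsg.Agent.Lib.BCSpec.PSp
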